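import Cfsg.Agent.Lib.FusionExamples.J4Sub.Defs
import Cfsg.Agent.Lib.Golay.M24

/-!
The first seven relators of the presented fourth Janko group hold in `M₂₄` for two generators.
-/

set_option autoImplicit false
set_option maxRecDepth 100000

open Cfsg

namespace CfsgLib.SporRecognition.J4Hom

open CfsgLib.Golay

/-- The packed table of the image of `x`. -/
def tX : ℕ := 726071369878957393023809377131528834
/-- The packed table of the image of `y`. -/
def tY : ℕ := 727099806275881130520779818435450592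
/-- The packed table of the inverse of the image of `y`. -/
def tYi : ℕ := 49624226263937722014818594389604896

/-- The function of a table. -/
def tblFun (t : ℕ) (p : GolayPt) : GolayPt := pt (tblAt t (idx p))

/-- The image of `x`. -/
def gX : Equiv.Perm GolayPt where
  toFun := tblFun tX
  invFun := tblFun tX
  left_inv := by decide +kernel
  right_inv := by decide +kernel

/-- The image of `y`. -/
def gY : Equiv.Perm GolayPt where
  toFun := tblFun tY
  invFun := tblFun tYi
  left_inv := by decide +kernel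
  right_inv := by decide +kernel

theorem isTbl_gX : IsTbl gX tX := by
  have h : ∀ p : GolayPt, idx (tblFun tX p) = tblAt tX (idx p) := by decide +kernel
  exact h

theorem isTbl_gY : IsTbl gY tY := by
  have h : ∀ p : GolayPt, idx (tblFun tY p) = tblAt tY (idx p) := by decide +kernel
  exact h

theorem inM24_gens : inM24 tX = true ∧ inM24 tY = true := by decide +kernel

/-- The image of `x` in `M₂₄`. -/
def mX : M24 := ⟨gX, mem_M24_of_isTbl isTbl_gX inM24_gens.1⟩

/-- The image of `y` in `M₂₄`. -/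
def mY : M24 := ⟨gY, mem_M24_of_isTbl isTbl_gY inM24_gens.2⟩

theorem rel_check : gX ^ 2 = 1 ∧ gY ^ 3 = 1 ∧ (gX * gY) ^ 23 = 1 ∧
    (gX⁻¹ * gY⁻¹ * gX * gY) ^ 12 = 1 ∧
    (gX⁻¹ * (gY * gX * gY)⁻¹ * gX * (gY * gX * gY)) ^ 5 = 1 ∧
    (gX * gY * ((gX * gY * gX * gY⁻¹) ^ 3)) ^ 4 = 1 ∧
    (gX * gY * gX * gY * gX * gY⁻¹) ^ 3 * (gX * gY * gX * gY⁻¹ * gX * gY⁻¹) ^ 3 = 1 := by
  decide +kernel

/-- The letters used in the words. -/
def letter : Fin 3 → Equiv.Perm GolayPt := ![gX, gY, gY⁻¹]

/-- Words for the standard generators. -/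
def wAdd : List (Fin 3) := [1, 0, 1, 0, 1, 0, 2, 0, 1, 0, 1, 0, 2, 0, 2, 0, 1, 0, 2, 0, 2, 0, 2, 0, 1, 0, 1, 0, 1, 0, 2, 0, 2, 0, 1, 0, 2, 0, 1, 0, 1, 0, 2, 0, 2, 0, 1, 0, 1, 0, 2, 0, 1]
/-- Word for `x ↦ -1/x`. -/
def wInv : List (Fin 3) := [0, 2, 0, 2, 0, 1, 0, 1, 0, 2, 0, 2, 0, 1, 0, 2, 0, 2, 0, 2, 0, 1, 0, 2, 0, 2, 0, 2, 0, 2, 0, 2, 0, 2, 0, 1, 0, 1, 0, 1, 0, 2, 0, 1, 0, 1, 0, 1, 0, 1, 0]
/-- Word for the cube twist. -/
def wCub : List (Fin 3) := [0, 1, 0, 2, 0, 1, 0, 1, 0, 2, 0, 2, 0, 2, 0, 2, 0, 1, 0, 2, 0, 2, 0, 2, 0, 1, 0, 2, 0, 2, 0, 2, 0, 2, 0, 1, 0, 1, 0, 1, 0, 2, 0, 2, 0, 2, 0, 2, 0, 2, 0, 2, 0, 2]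

theorem word_check : ∀ p : GolayPt,
    (wAdd.map letter).prod p = Option.map (fun x : ZMod 23 => x + 1) p ∧
    (wInv.map letter).prod p = projInvFun p ∧ (wCub.map letter).prod p = cubeTwistFun p := by
  decide +kernel

open CfsgLib.FusionExamples.J4Sub in
/-- `M₂₄` is an image of the group of the first seven relators. -/
theorem exists_surjection : ∃ f : P →* M24, Function.Surjective f := by
  classical
  let img : Cfsg.Spor.J4.Gen → M24 := fun g => match g with
    | .x => mX
    | .y => mY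
    | .t => 1
  have h : ∀ r ∈ rels, FreeGroup.lift img r = 1 := by
    intro r hr
    rcases hr with hr | hr
    · obtain ⟨u, hu, -⟩ := hr
      simp [edges, Cfsg.Spor.coxNodes] at hu
    · obtain ⟨h1, h2, h3, h4, h5, h6, h7⟩ := rel_check
      simp only [extra, Cfsg.Spor.J4.extra, List.take, List.cons_append, List.nil_append,
        Set.mem_setOf_eq, List.mem_cons, List.not_mem_nil, or_false] at hr
      refine Subtype.ext ?_
      rcases hr with rfl | rfl | rfl | rfl | rfl | rfl | rfl | rfl <;>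
        simp only [map_mul, map_inv, map_pow, FreeGroup.lift_apply_of, img, Subgroup.coe_mul,
          Subgroup.coe_inv, SubmonoidClass.coe_pow, Subgroup.coe_one, mX, mY]
      all_goals first | with_reducible assumption | with_reducible exact one_pow 2 | skip
  let f : P →* M24 := PresentedGroup.toGroup h
  have hx : f (PresentedGroup.of Cfsg.Spor.J4.Gen.x) = mX := PresentedGroup.toGroup.of h
  have hy : f (PresentedGroup.of Cfsg.Spor.J4.Gen.y) = mY := PresentedGroup.toGroup.of h
  refine ⟨f, fun m => ?_⟩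
  have hle : M24 ≤ f.range.map M24.subtype := by
    nth_rewrite 1 [← closure_generators]
    rw [Subgroup.closure_le]
    have hl : ∀ i, letter i ∈ f.range.map M24.subtype := by
      intro i
      fin_cases i
      · exact ⟨mX, ⟨_, hx⟩, rfl⟩
      · exact ⟨mY, ⟨_, hy⟩, rfl⟩
      · exact inv_mem (show gY ∈ f.range.map M24.subtype from ⟨mY, ⟨_, hy⟩, rfl⟩)
    have hw : ∀ w : List (Fin 3), (w.map letter).prod ∈ f.range.map M24.subtype := fun w =>
      list_prod_mem fun g hg => by
        obtain ⟨i, -, rfl⟩ := List.mem_map.1 hg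
        exact hl i
    rintro g (rfl | rfl | rfl)
    · rw [show Equiv.optionCongr (Equiv.addRight (1 : ZMod 23)) = (wAdd.map letter).prod from
        Equiv.ext fun p => ((word_check p).1).symm]
      exact hw _
    · rw [show projInv = (wInv.map letter).prod from
        Equiv.ext fun p => ((word_check p).2.1).symm]
      exact hw _
    · rw [show cubeTwist = (wCub.map letter).prod from
        Equiv.ext fun p => ((word_check p).2.2).symm]
      exact hw _
  obtain ⟨m', ⟨a, ha⟩, hm'⟩ := hle m.2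
  exact ⟨a, ha.trans (Subtype.ext hm')⟩

end CfsgLib.SporRecognition.J4Hom
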